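import Cfsg.Agent.Lib.Chevalley.E6Cubic.AdjointCheck

/-! The isometry group of the cubic form modulo its centre is the Chevalley group of type E6. -/

set_option autoImplicit false
set_option maxRecDepth 100000
set_option linter.unusedSectionVars false
set_option linter.unusedSimpArgs false

namespace CfsgLib.Chevalley.E6Cubic

open Cfsg.Lie Matrix

/-- The numbering of the coordinates of the adjoint module. -/
abbrev cd6 : chevE6.Idx ≃ Fin (chevE6.rank + chevE6.nroots) := code chevE6

/-- Sparse matrices on 27 coordinates. -/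
def zM (L : Sparse.SMat) : Matrix (Fin 27) (Fin 27) ℤ := Sparse.toMat (fun a => ((Equiv.refl (Fin 27) a : Fin 27) : ℕ)) L

/-- The representing matrices. -/
def zB (k : chevE6.Idx) : Matrix (Fin 27) (Fin 27) ℤ := zM (basL (cd6 k))

theorem column_sum (L : Sparse.SMat) (hL : ∀ e ∈ L, e.1 < 78) (c : chevE6.Idx) :
    (∑ k, Sparse.entry L (cd6 k) (cd6 c) • zB k) =
      (((L.filter fun e => e.2.1 == (cd6 c : ℕ)).map fun e => (e.2.2, e.1)).map
        fun p => p.1 • zM (basL p.2)).sum := by
  induction L with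
  | nil => simp
  | cons e L ih =>
    have he := hL e List.mem_cons_self
    have h1 : (∑ k, (if e.1 = (cd6 k : ℕ) ∧ e.2.1 = (cd6 c : ℕ) then e.2.2 else 0) • zB k) =
        if e.2.1 = (cd6 c : ℕ) then e.2.2 • zM (basL e.1) else 0 := by
      by_cases hc : e.2.1 = (cd6 c : ℕ)
      · rw [if_pos hc, Finset.sum_eq_single (cd6.symm ⟨e.1, he⟩)]
        · simp [hc, zB]
        · intro k _ hk
          rw [if_neg, zero_smul]
          rintro ⟨h, -⟩
          exact hk (cd6.injective (Fin.ext (by simp [h])))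
        · simp
      · simp [hc]
    simp only [Sparse.entry_cons, add_smul, Finset.sum_add_distrib, h1,
      ih fun x hx => hL x (List.mem_cons_of_mem _ hx), List.filter_cons]
    by_cases hc : e.2.1 = (cd6 c : ℕ) <;> simp [hc]

theorem adj_identities (r : Fin 72) (c : chevE6.Idx) :
    (zM (rootEnt.getD r.val []) * zB c =
        zB c * zM (rootEnt.getD r.val []) + ∑ k, coefMat chevE6 1 r.val k c • zB k) ∧
      ((∑ k, coefMat chevE6 1 r.val k c • zB k) * zM (rootEnt.getD r.val []) +
        ∑ k, coefMat chevE6 2 r.val k c • zB k = 0) ∧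
      (∑ k, coefMat chevE6 2 r.val k c • zB k) * zM (rootEnt.getD r.val []) = 0 := by
  have h := List.all_eq_true.1 (List.all_eq_true.1 adjB_ok r.val (List.mem_range.2 r.isLt)) (cd6 c).val
    (List.mem_range.2 (cd6 c).isLt)
  simp only [adjB, Bool.and_eq_true] at h
  have hr := List.all_eq_true.1 rows_ok r.val (List.mem_range.2 r.isLt)
  simp only [Bool.and_eq_true, List.all_eq_true, List.mem_append, decide_eq_true_eq] at hr
  obtain ⟨⟨h1, h2⟩, h3⟩ := h
  have e1 := Sparse.checkZero_toMat (Equiv.refl (Fin 27)) h1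
  have e2 := Sparse.checkZero_toMat (Equiv.refl (Fin 27)) h2
  have e3 := Sparse.checkZero_toMat (Equiv.refl (Fin 27)) h3
  simp only [List.map_map, List.map_cons, List.map_nil, List.sum_cons, List.sum_nil, add_zero, one_smul,
    Function.comp_def] at e1 e2 e3
  have hc1 := column_sum (coefList chevE6 1 r.val) (fun e he => hr.1 e (Or.inl he)) c
  have hc2 := column_sum (coefList chevE6 2 r.val) (fun e he => hr.1 e (Or.inr he)) c
  simp only [List.map_map, Function.comp_def] at hc1 hc2
  simp only [cd6] at hc1 hc2 e1 e2 e3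
  have hsum : ∀ l : List (ℕ × ℕ × ℤ), (l.map fun e => e.2.2 • (zM (basL e.1) * zM (rootEnt.getD r.val []))).sum =
      (l.map fun e => e.2.2 • zM (basL e.1)).sum * zM (rootEnt.getD r.val []) := by
    intro l
    induction l with
    | nil => simp
    | cons x l ih =>
      rw [List.map_cons, List.map_cons, List.sum_cons, List.sum_cons, ih, add_mul, smul_mul_assoc]
  have hneg : ∀ l : List (ℕ × ℕ × ℤ), (l.map fun e => (-e.2.2) • zM (basL e.1)).sum =
      -(l.map fun e => e.2.2 • zM (basL e.1)).sum := by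
    intro l
    induction l with
    | nil => simp
    | cons x l ih =>
      rw [List.map_cons, List.map_cons, List.sum_cons, List.sum_cons, ih, neg_smul, neg_add]
  simp only [colE, List.map_map, Function.comp_def] at e1 e2 e3
  simp only [coefMat, Sparse.toMat_apply]
  rw [hc1, hc2]
  refine ⟨?_, ?_, ?_⟩
  · rw [← sub_eq_zero, ← e1]
    simp only [zB, zM] at e1 hneg ⊢
    rw [hneg, neg_smul, one_smul]
    abel
  · rw [← hsum, ← e2]
    rfl
  · rw [← hsum, ← e3]
    rfl

variable {F : Type*} [Field F]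

/-- The representing matrices over a field. -/
def fB (k : chevE6.Idx) : Matrix (Fin 27) (Fin 27) F := (Int.castRingHom F).mapMatrix (zB k)

/-- The combination given by a column. -/
def comb (X : Matrix chevE6.Idx chevE6.Idx F) (c : chevE6.Idx) : Matrix (Fin 27) (Fin 27) F :=
  ∑ k, X k c • fB k

theorem rootMat_eq (r : Fin 72) :
    (rootMat r : Matrix (Fin 27) (Fin 27) F) = (Int.castRingHom F).mapMatrix (zM (rootEnt.getD r.val [])) := by
  ext a b
  simp [rootMat, zM, Sparse.toMat_apply, ent_ok, -List.getD_eq_getElem?_getD]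

theorem uG_conj (r : Fin 72) (t : F) (c : chevE6.Idx) :
    (uG r t : Matrix (Fin 27) (Fin 27) F) * fB c =
      comb (chevE6.x F r.val t) c * (uG r t : Matrix (Fin 27) (Fin 27) F) := by
  obtain ⟨e1, e2, e3⟩ := adj_identities r c
  set φ := (Int.castRingHom F).mapMatrix (m := Fin 27)
  have hr : (r : ℕ) < chevE6.nroots := r.isLt
  have hcoef3 : coefIn chevE6 F 3 r.val = 0 := by
    have hr' := List.all_eq_true.1 rows_ok r.val (List.mem_range.2 r.isLt)
    simp only [Bool.and_eq_true, List.isEmpty_iff] at hr'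
    ext a b
    simp [coefIn, coefMat, hr'.2, Sparse.toMat_apply]
  have hcomb : ∀ k, comb (coefIn chevE6 F k r.val) c = φ (∑ j, coefMat chevE6 k r.val j c • zB j) := by
    intro k
    rw [map_sum]
    refine Finset.sum_congr rfl fun j _ => ?_
    rw [map_zsmul, coefIn, Matrix.map_apply, ← Int.cast_smul_eq_zsmul F]
    rfl
  have hlin : ∀ (X Y : Matrix chevE6.Idx chevE6.Idx F), comb (X + Y) c = comb X c + comb Y c :=
    fun X Y => by simp [comb, add_smul, Finset.sum_add_distrib]
  have hsm : ∀ (s : F) (X : Matrix chevE6.Idx chevE6.Idx F), comb (s • X) c = s • comb X c :=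
    fun s X => by simp [comb, Finset.smul_sum, smul_smul]
  have hone : comb (1 : Matrix chevE6.Idx chevE6.Idx F) c = fB c := by
    rw [comb, Finset.sum_eq_single c]
    · simp
    · intro k _ hk; simp [hk]
    · simp
  have d1 : φ (zM (rootEnt.getD r.val [])) * fB c =
      fB c * φ (zM (rootEnt.getD r.val [])) + comb (coefIn chevE6 F 1 r.val) c := by
    rw [hcomb, fB, ← map_mul, ← map_mul, ← map_add, e1]
  have d2 : comb (coefIn chevE6 F 1 r.val) c * φ (zM (rootEnt.getD r.val [])) +
      comb (coefIn chevE6 F 2 r.val) c = 0 := by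
    rw [hcomb, hcomb, ← map_mul, ← map_add, e2, map_zero]
  have d3 : comb (coefIn chevE6 F 2 r.val) c * φ (zM (rootEnt.getD r.val [])) = 0 := by
    rw [hcomb, ← map_mul, e3, map_zero]
  rw [x_eq_xR chevE6 F hr, xR_eq_sum chevE6 cert_E6.wf ⟨r.val, hr⟩, hlin, hlin, hlin, hsm, hsm, hsm, hone, hcoef3]
  have hu : (uG r t : Matrix (Fin 27) (Fin 27) F) = 1 + t • φ (zM (rootEnt.getD r.val [])) := by
    show (1 : Matrix (Fin 27) (Fin 27) F) + t • rootMat r = _
    rw [rootMat_eq]
  have h0 : comb (0 : Matrix chevE6.Idx chevE6.Idx F) c = 0 := by simp [comb]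
  rw [hu, h0, smul_zero, add_zero]
  set E := φ (zM (rootEnt.getD r.val []))
  set C1 := comb (coefIn chevE6 F 1 r.val) c
  set C2 := comb (coefIn chevE6 F 2 r.val) c
  have d2' : C2 = -(C1 * E) := eq_neg_of_add_eq_zero_right d2
  simp only [add_mul, mul_add, one_mul, mul_one, smul_mul_assoc, mul_smul_comm, smul_smul, d3, smul_zero,
    add_zero, d1, smul_add]
  rw [d2']
  module

/-! ### The linear independence of the Lie algebra basis -/

/-- The position of the first entry of a root matrix. -/
def pivot (r : Fin 72) : Fin 27 × Fin 27 :=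
  match rootEnt.getD r.val [] with
  | [] => (0, 0)
  | e :: _ => (fi e.1, fi e.2.1)

theorem pivot_ok : ∀ (r : Fin 72) (n : Fin 78),
    (Sparse.entry (basL n.val) (pivot r).1.val (pivot r).2.val).natAbs = if n.val = 6 + r.val then 1 else 0 := by
  decide +kernel

theorem diag_ok : ∀ (j : Fin 6) (n : Fin 78), Sparse.entry (basL n.val) (baseAt j).val (baseAt j).val =
    if h : n.val < 6 then wt ⟨n.val, h⟩ (baseAt j) else 0 := by
  decide +kernel

theorem inv_ok' : ∀ i k : Fin 6, (∑ j : Fin 6, wt i (baseAt j) * invAt k j) = if i = k then 1 else 0 := by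
  decide +kernel

theorem fB_apply (k : chevE6.Idx) (a b : Fin 27) :
    (fB k : Matrix (Fin 27) (Fin 27) F) a b = ((Sparse.entry (basL (cd6 k)) a.val b.val : ℤ) : F) := rfl

theorem fB_indep (a : chevE6.Idx → F) (h : (∑ k, a k • fB k : Matrix (Fin 27) (Fin 27) F) = 0) : a = 0 := by
  have hent : ∀ x y, ∑ k, a k * ((Sparse.entry (basL (cd6 k)) (x : Fin 27).val (y : Fin 27).val : ℤ) : F) = 0 :=
    fun x y => by
      have := congrFun (congrFun h x) y
      simpa [Matrix.sum_apply, fB_apply] using this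
  have hroot : ∀ r : Fin chevE6.nroots, a (Sum.inr r) = 0 := by
    intro r
    have hr : Fin 72 := ⟨r.val, r.isLt⟩
    have e := hent (pivot ⟨r.val, r.isLt⟩).1 (pivot ⟨r.val, r.isLt⟩).2
    rw [Finset.sum_eq_single (Sum.inr r)] at e
    · have hp := pivot_ok ⟨r.val, r.isLt⟩ (cd6 (Sum.inr r))
      rw [if_pos (by simp; rfl)] at hp
      rcases Int.natAbs_eq_iff.1 hp with hp | hp <;> rw [hp] at e <;> simpa using e
    · intro k _ hk
      have hp := pivot_ok ⟨r.val, r.isLt⟩ (cd6 k)
      rw [if_neg] at hp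
      · rw [Int.natAbs_eq_zero.1 hp, Int.cast_zero, mul_zero]
      · intro hh
        exact hk (cd6.injective (Fin.ext (hh.trans (by simp; rfl))))
    · simp
  funext k
  rcases k with i | r
  · have hi : ∀ j : Fin 6, ∑ l : Fin 6, a (Sum.inl l) * ((wt l (baseAt j) : ℤ) : F) = 0 := by
      intro j
      have e := hent (baseAt j) (baseAt j)
      rw [Fintype.sum_sum_type] at e
      simp only [hroot, zero_mul, Finset.sum_const_zero, add_zero] at e
      refine Eq.trans (Finset.sum_congr rfl fun l _ => ?_) e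
      congr 2
      have hd := diag_ok j (cd6 (Sum.inl l))
      rw [dif_pos (show ((cd6 (Sum.inl l)) : ℕ) < 6 from l.isLt)] at hd
      exact hd.symm
    have key : ∀ (b : Fin 6 → F), (∀ j : Fin 6, ∑ l : Fin 6, b l * ((wt l (baseAt j) : ℤ) : F) = 0) →
        ∀ i, b i = 0 := by
      intro b hb i
      have e : (∑ j : Fin 6, (∑ l : Fin 6, b l * ((wt l (baseAt j) : ℤ) : F)) * ((invAt i j : ℤ) : F)) =
          b i := by
        simp only [Finset.sum_mul, mul_assoc, ← Int.cast_mul]
        rw [Finset.sum_comm]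
        simp only [← Finset.mul_sum, ← Int.cast_sum, inv_ok']
        rw [Finset.sum_eq_single i]
        · simp
        · intro l _ hl; simp [hl]
        · simp
      rw [← e]
      simp [hb]
    exact key (fun l => a (Sum.inl l)) hi i
  · exact hroot r

theorem comb_eq_self (A : Matrix chevE6.Idx chevE6.Idx F) (h : ∀ c, comb A c = fB c) : A = 1 := by
  ext k c
  have e := fB_indep (fun k => A k c - (1 : Matrix chevE6.Idx chevE6.Idx F) k c) (by
    simp only [sub_smul, Finset.sum_sub_distrib]
    rw [show (∑ k, A k c • fB k) = comb A c from rfl, h c, sub_eq_zero, Finset.sum_eq_single c]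
    · simp
    · intro k _ hk; simp [hk]
    · simp)
  simpa [sub_eq_zero] using congrFun e k

/-! ### The adjoint action -/

theorem comb_mul (A B : Matrix chevE6.Idx chevE6.Idx F) (c : chevE6.Idx) :
    comb (A * B) c = ∑ k, B k c • comb A k := by
  simp only [comb, Matrix.mul_apply, Finset.sum_smul, Finset.smul_sum, smul_smul]
  rw [Finset.sum_comm]
  exact Finset.sum_congr rfl fun k _ => Finset.sum_congr rfl fun j _ => by rw [mul_comm]

/-- Compatible pairs. -/
def adjPairs (F : Type*) [Field F] : Subgroup (GL (Fin 27) F × GL chevE6.Idx F) where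
  carrier := {p | ∀ c, (p.1 : Matrix (Fin 27) (Fin 27) F) * fB c =
    comb (p.2 : Matrix chevE6.Idx chevE6.Idx F) c * (p.1 : Matrix (Fin 27) (Fin 27) F)}
  one_mem' := fun c => by
    simp only [Prod.fst_one, Prod.snd_one, Units.val_one, one_mul, mul_one]
    rw [comb, Finset.sum_eq_single c]
    · simp
    · intro k _ hk; simp [hk]
    · simp
  mul_mem' := by
    intro p q hp hq c
    simp only [Prod.fst_mul, Prod.snd_mul, Units.val_mul]
    rw [mul_assoc, hq c, ← mul_assoc, ← mul_assoc, comb_mul]
    congr 1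
    simp only [comb, Finset.mul_sum, mul_smul_comm, hp _, Finset.sum_mul, smul_mul_assoc]
  inv_mem' := by
    intro p hp c
    simp only [Prod.fst_inv, Prod.snd_inv]
    have key : (p.1 : Matrix (Fin 27) (Fin 27) F) *
        comb ((p.2⁻¹ : GL chevE6.Idx F) : Matrix chevE6.Idx chevE6.Idx F) c =
        fB c * (p.1 : Matrix (Fin 27) (Fin 27) F) := by
      rw [comb, Finset.mul_sum]
      simp only [mul_smul_comm, hp _, ← smul_mul_assoc, ← Finset.sum_mul]
      rw [← comb_mul, ← Units.val_mul, mul_inv_cancel, Units.val_one]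
      congr 1
      rw [comb, Finset.sum_eq_single c]
      · simp
      · intro k _ hk; simp [hk]
      · simp
    calc ((p.1⁻¹ : GL (Fin 27) F) : Matrix (Fin 27) (Fin 27) F) * fB c
        = ((p.1⁻¹ : GL (Fin 27) F) : Matrix (Fin 27) (Fin 27) F) * (fB c * (p.1 : Matrix (Fin 27) (Fin 27) F)) *
            ((p.1⁻¹ : GL (Fin 27) F) : Matrix (Fin 27) (Fin 27) F) := by
          rw [mul_assoc, mul_assoc, ← Units.val_mul, mul_inv_cancel, Units.val_one, mul_one]
      _ = _ := by rw [← key, ← mul_assoc, ← Units.val_mul, inv_mul_cancel, Units.val_one, one_mul]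

theorem pair_unique {g : GL (Fin 27) F} {A B : GL chevE6.Idx F} (hA : (g, A) ∈ adjPairs F)
    (hB : (g, B) ∈ adjPairs F) : A = B := by
  have h := mul_mem (inv_mem hA) hB
  simp only [Prod.inv_mk, Prod.mk_mul_mk, inv_mul_cancel] at h
  have e := comb_eq_self ((A⁻¹ * B : GL chevE6.Idx F) : Matrix chevE6.Idx chevE6.Idx F) fun c => by
    simpa using (h c).symm
  exact inv_mul_eq_one.1 (Units.ext e)

theorem exists_pair {g : GL (Fin 27) F} (hg : g ∈ rootGroup F) :
    ∃ A, A ∈ chevE6.group F ∧ (g, A) ∈ adjPairs F := by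
  induction hg using Subgroup.closure_induction with
  | mem x hx =>
    obtain ⟨⟨r, t⟩, rfl⟩ := hx
    exact ⟨xG cert_E6 r.val t, xG_mem_group cert_E6 _ _, fun c => by rw [coe_xG]; exact uG_conj r t c⟩
  | one => exact ⟨1, one_mem _, one_mem _⟩
  | mul x y _ _ hx hy =>
    obtain ⟨A, hA, hA'⟩ := hx
    obtain ⟨B, hB, hB'⟩ := hy
    exact ⟨A * B, mul_mem hA hB, mul_mem hA' hB'⟩
  | inv x _ hx =>
    obtain ⟨A, hA, hA'⟩ := hx
    exact ⟨A⁻¹, inv_mem hA, inv_mem hA'⟩

/-- The adjoint representation. -/
noncomputable def adjHom (F : Type*) [Field F] : rootGroup F →* chevE6.group F :=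
  MonoidHom.mk' (fun g => ⟨(exists_pair g.2).choose, (exists_pair g.2).choose_spec.1⟩) fun a b =>
    Subtype.ext (pair_unique (exists_pair (a * b).2).choose_spec.2
      (mul_mem (exists_pair a.2).choose_spec.2 (exists_pair b.2).choose_spec.2))

theorem adjHom_pair (g : rootGroup F) :
    ((g : GL (Fin 27) F), (adjHom F g : GL chevE6.Idx F)) ∈ adjPairs F :=
  (exists_pair g.2).choose_spec.2

theorem adjHom_surjective : Function.Surjective (adjHom F) := by
  rw [← MonoidHom.range_eq_top, eq_top_iff]
  intro A _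
  have h : chevE6.group F ≤ (adjHom F).range.map (chevE6.group F).subtype := by
    refine (group_le_iff cert_E6).2 fun r t => ?_
    refine ⟨adjHom F ⟨uG ⟨r.val, r.isLt⟩ t, uG_mem_rootGroup _ _⟩, ⟨_, rfl⟩, ?_⟩
    exact pair_unique (adjHom_pair _) (fun c => by rw [coe_xG]; exact uG_conj ⟨r.val, r.isLt⟩ t c)
  obtain ⟨B, hB, e⟩ := h A.2
  rwa [Subtype.ext e] at hB

theorem ker_adjHom : (adjHom F).ker = Subgroup.center (rootGroup F) := by
  refine le_antisymm (fun g hg => ?_) (fun z hz => ?_)
  · have hp := adjHom_pair g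
    rw [MonoidHom.mem_ker] at hg
    rw [hg] at hp
    have hc : ∀ k, Commute ((g : GL (Fin 27) F) : Matrix (Fin 27) (Fin 27) F) (fB k) := fun k => by
      have e := hp k
      rwa [Subgroup.coe_one, Units.val_one, comb, Finset.sum_eq_single k (fun j _ hj => by simp [hj])
        (by simp), Matrix.one_apply_eq, one_smul] at e
    have hu : ∀ r t, Commute (g : GL (Fin 27) F) (uG r t) := by
      intro r t
      refine Units.ext ?_
      have e : (fB (Sum.inr ⟨r.val, r.isLt⟩) : Matrix (Fin 27) (Fin 27) F) = rootMat r := by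
        rw [rootMat_eq, fB, zB]
        congr 3
        show basL (6 + r.val) = _
        simp [basL]
      have hk := hc (Sum.inr ⟨r.val, r.isLt⟩)
      rw [e] at hk
      exact ((Commute.one_right _).add_right (hk.smul_right t)).eq
    refine Subgroup.mem_center_iff.2 fun y => Subtype.ext ?_
    have : ∀ y ∈ rootGroup F, Commute (g : GL (Fin 27) F) y := by
      intro y hy
      induction hy using Subgroup.closure_induction with
      | mem x hx => obtain ⟨⟨r, t⟩, rfl⟩ := hx; exact hu r t
      | one => exact Commute.one_right _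
      | mul x y _ _ hx hy => exact hx.mul_right hy
      | inv x _ hx => exact hx.inv_right
    exact (this y y.2).eq.symm
  · obtain ⟨hs, hnc⟩ := simpleE6 (F := F)
    rw [MonoidHom.mem_ker]
    have hz' : adjHom F z ∈ Subgroup.center (chevE6.group F) := Subgroup.mem_center_iff.2 fun A => by
      obtain ⟨y, rfl⟩ := adjHom_surjective A
      rw [← map_mul, ← map_mul, Subgroup.mem_center_iff.1 hz y]
    rcases hs.eq_bot_or_eq_top_of_normal (Subgroup.center (chevE6.group F)) inferInstance with h | h
    · rwa [h, Subgroup.mem_bot] at hz'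
    · exact absurd ⟨⟨fun a b => Subgroup.mem_center_iff.1 (h ▸ Subgroup.mem_top b) a⟩⟩ hnc

/-! ### The 27 coordinates of three 3 by 3 matrices -/

/-- The numbering of the coordinates. -/
def eI : I27 ≃ Fin 27 where
  toFun p := fi (9 * p.1.val + 3 * p.2.1.val + p.2.2.val)
  invFun n := (Fin.ofNat 3 (n.val / 9), Fin.ofNat 3 (n.val / 3), Fin.ofNat 3 n.val)
  left_inv := by intro p; revert p; decide +kernel
  right_inv := by intro n; revert n; decide +kernel

theorem cT_eq (w : Fin 27 → F) : cT w = cubicT (w ∘ eI) := by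
  simp [cT, monos, monoTab, monV, fi, eI, cubicT, mat3, Matrix.det_fin_three, Matrix.trace_fin_three,
    Matrix.mul_apply, Fin.sum_univ_three]
  ring

theorem cT_eI (v : I27 → F) : cT (v ∘ eI.symm) = cubicT v := by
  rw [cT_eq]
  congr 1
  funext x
  simp

/-- Renumbering of the general linear group. -/
noncomputable def glEq (F : Type*) [Field F] : GL I27 F ≃* GL (Fin 27) F :=
  Units.mapEquiv (Matrix.reindexAlgEquiv F F eI).toMulEquiv

theorem act_glEq (g : GL I27 F) (w : Fin 27 → F) :
    act (glEq F g) w = ((g : Matrix I27 I27 F) *ᵥ (w ∘ eI)) ∘ eI.symm := by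
  show (Matrix.reindex eI eI (g : Matrix I27 I27 F)) *ᵥ w = _
  rw [Matrix.reindex_apply, Matrix.submatrix_mulVec_equiv]
  rfl

theorem map_glEq : (E6univ F).map (glEq F).toMonoidHom = cubicGroup F := by
  ext h
  rw [Subgroup.mem_map_equiv, mem_cubicGroup]
  obtain ⟨g, rfl⟩ := (glEq F).surjective h
  rw [MulEquiv.symm_apply_apply]
  constructor
  · intro hg w
    have e : cubicT ((g : Matrix I27 I27 F) *ᵥ (w ∘ eI)) = cubicT (w ∘ eI) := hg (w ∘ eI)
    rw [act_glEq, cT_eI, e, ← cT_eI (w ∘ eI)]
    congr 1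
    funext x
    simp
  · intro hg v
    have e := hg (v ∘ eI.symm)
    rw [act_glEq, cT_eI, cT_eI] at e
    rwa [show (v ∘ eI.symm) ∘ eI = v by funext x; simp] at e

/-- `E₆(F)` by the cubic form is the Chevalley group. -/
theorem nonempty_equiv (hF : ∃ s : F, s ≠ 0 ∧ s ≠ 1) : Nonempty (Cfsg.Lie.E6 F ≃* ↥(chevE6.group F)) := by
  let e1 : E6univ F ≃* rootGroup F :=
    ((glEq F).subgroupMap (E6univ F)).trans (MulEquiv.subgroupCongr (map_glEq.trans (cubicGroup_eq hF)))
  have hc : (Subgroup.center (E6univ F)).map e1.toMonoidHom = (adjHom F).ker := by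
    rw [ker_adjHom]
    ext x
    rw [Subgroup.mem_map_equiv, Subgroup.mem_center_iff, Subgroup.mem_center_iff]
    exact ⟨fun h y => e1.symm.injective (by simpa using h (e1.symm y)),
      fun h y => e1.injective (by simpa using h (e1 y))⟩
  exact ⟨(QuotientGroup.congr _ _ e1 hc).trans (QuotientGroup.quotientKerEquivOfSurjective _ adjHom_surjective)⟩

end CfsgLib.Chevalley.E6Cubic
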