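import Cfsg.Agent.Lib.Chevalley.E6Cubic.Reduce
import Cfsg.Agent.Lib.Chevalley.SimpleData

/-! Kernel checks of the action of the root elements on the Lie algebra. -/

set_option autoImplicit false
set_option Elab.async false
set_option maxRecDepth 100000
set_option linter.unusedSectionVars false
set_option linter.unusedSimpArgs false

namespace CfsgLib.Chevalley.E6Cubic

open Cfsg.Lie Matrix

/-- The representing matrices of the Lie algebra basis, sparse. -/
def basL (n : ℕ) : Sparse.SMat :=
  if n < 6 then
    (List.range 27).filterMap fun x =>
      if (hTab.getD n []).getD x 0 = 0 then none else some (x, x, (hTab.getD n []).getD x 0)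
  else rootEnt.getD (n - 6) []

/-- A column of a coefficient matrix. -/
def colE (k r c : ℕ) : List (ℤ × ℕ) :=
  ((coefList chevE6 k r).filter fun e => e.2.1 == c).map fun e => (e.2.2, e.1)

/-- The identities for the root element `r` and the basis vector `c`. -/
noncomputable def adjB (r c : ℕ) : Bool :=
  Sparse.checkZero 27 [(1, rootEnt.getD r [], basL c), (-1, basL c, rootEnt.getD r [])]
      ((colE 1 r c).map fun p => (-p.1, basL p.2)) &&
    Sparse.checkZero 27 ((colE 1 r c).map fun p => (p.1, basL p.2, rootEnt.getD r []))
      ((colE 2 r c).map fun p => (p.1, basL p.2)) &&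
    Sparse.checkZero 27 ((colE 2 r c).map fun p => (p.1, basL p.2, rootEnt.getD r [])) []

theorem adjB_ok : ((List.range 72).all fun r => (List.range 78).all (adjB r)) = true := by
  rw [show List.range 72 = List.range' 0 18 ++ List.range' 18 18 ++ List.range' 36 18 ++ List.range' 54 18 by
    decide +kernel]
  simp only [List.all_append, Bool.and_eq_true]
  repeat' apply And.intro
  all_goals decide +kernel

theorem rows_ok : ((List.range 72).all fun r => ((coefList chevE6 1 r ++ coefList chevE6 2 r).all fun e =>
    decide (e.1 < 78)) && (coefList chevE6 3 r).isEmpty) = true := by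
  decide +kernel

theorem ent_ok : ∀ (r : Fin 72) (a b : Fin 27),
    Sparse.entry (rootEnt.getD r.val []) a.val b.val = if b = src r a then coef r a else 0 := by
  have h : ∀ (i : Fin 4) (j : Fin 18) (a b : Fin 27),
      Sparse.entry (rootEnt.getD (18 * i.val + j.val) []) a.val b.val =
        if b = src (Fin.ofNat 72 (18 * i.val + j.val)) a then coef (Fin.ofNat 72 (18 * i.val + j.val)) a else 0 := by
    intro i
    fin_cases i <;> decide +kernel
  intro r a b
  have e : 18 * (r.val / 18) + r.val % 18 = r.val := Nat.div_add_mod _ _
  have e' : Fin.ofNat 72 r.val = r := Fin.ext (Nat.mod_eq_of_lt r.isLt)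
  simpa only [e, e'] using h ⟨r.val / 18, by omega⟩ ⟨r.val % 18, by omega⟩ a b

theorem simpleR_ok : ∀ i : Fin 6, (simpleR i).val = chevE6.simple i.val := by
  decide +kernel

end CfsgLib.Chevalley.E6Cubic
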