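import Cfsg.Agent.Lib.Chevalley.E6Cubic.Data
import Cfsg.Prelude.Def_E6

/-! The cubic form on 27 coordinates, its polarizations, and root elements preserving it. -/

set_option autoImplicit false
set_option Elab.async false
set_option maxRecDepth 100000
set_option linter.unusedSectionVars false

namespace CfsgLib.Chevalley.E6Cubic

open Matrix

/-- An index below 27. -/
def fi (n : ℕ) : Fin 27 := Fin.ofNat 27 n

/-- A root index. -/
def fr (n : ℕ) : Fin 72 := Fin.ofNat 72 n

/-- The monomials. -/
def monos : List (ℤ × Fin 27 × Fin 27 × Fin 27) :=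
  monoTab.map fun m => (m.1, fi m.2.1, fi m.2.2.1, fi m.2.2.2)

variable {F : Type*} [Field F]

/-- The value of one monomial. -/
def monV (v : Fin 27 → F) (m : ℤ × Fin 27 × Fin 27 × Fin 27) : F :=
  (m.1 : F) * (v m.2.1 * v m.2.2.1 * v m.2.2.2)

/-- The cubic form. -/
def cT (v : Fin 27 → F) : F := (monos.map (monV v)).sum

/-- One monomial of the quadratic-linear polarization. -/
def monD (v u : Fin 27 → F) (m : ℤ × Fin 27 × Fin 27 × Fin 27) : F :=
  (m.1 : F) * (u m.2.1 * v m.2.2.1 * v m.2.2.2 + v m.2.1 * u m.2.2.1 * v m.2.2.2 +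
    v m.2.1 * v m.2.2.1 * u m.2.2.2)

/-- The derivative at `v` in the direction `u`. -/
def cD (v u : Fin 27 → F) : F := (monos.map (monD v u)).sum

/-- One monomial of the trilinear polarization. -/
def monP (u v w : Fin 27 → F) (m : ℤ × Fin 27 × Fin 27 × Fin 27) : F :=
  (m.1 : F) * (u m.2.1 * v m.2.2.1 * w m.2.2.2 + v m.2.1 * u m.2.2.1 * w m.2.2.2 +
    u m.2.1 * w m.2.2.1 * v m.2.2.2 + v m.2.1 * w m.2.2.1 * u m.2.2.2 +
    w m.2.1 * u m.2.2.1 * v m.2.2.2 + w m.2.1 * v m.2.2.1 * u m.2.2.2)

/-- The trilinear form. -/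
def cP (u v w : Fin 27 → F) : F := (monos.map (monP u v w)).sum

theorem cT_line (v u : Fin 27 → F) (s : F) :
    cT (v + s • u) = cT v + s * cD v u + s ^ 2 * cD u v + s ^ 3 * cT u := by
  unfold cT cD
  induction monos with
  | nil => simp
  | cons m l ih =>
    simp only [List.map_cons, List.sum_cons, ih, monV, monD, Pi.add_apply, Pi.smul_apply, smul_eq_mul]
    ring

theorem cP_eq (u v w : Fin 27 → F) : cP u v w = cD (u + v) w - cD u w - cD v w := by
  unfold cP cD
  induction monos with
  | nil => simp
  | cons m l ih =>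
    simp only [List.map_cons, List.sum_cons, ih, monP, monD, Pi.add_apply]
    ring

theorem cP_smul_left (c : F) (u v w : Fin 27 → F) : cP (c • u) v w = c * cP u v w := by
  unfold cP
  induction monos with
  | nil => simp
  | cons m l ih =>
    simp only [List.map_cons, List.sum_cons, ih, monP, Pi.smul_apply, smul_eq_mul]
    ring

theorem cP_smul_right (c : F) (u v w : Fin 27 → F) : cP u v (c • w) = c * cP u v w := by
  unfold cP
  induction monos with
  | nil => simp
  | cons m l ih =>
    simp only [List.map_cons, List.sum_cons, ih, monP, Pi.smul_apply, smul_eq_mul]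
    ring

theorem cP_smul_mid (c : F) (u v w : Fin 27 → F) : cP u (c • v) w = c * cP u v w := by
  unfold cP
  induction monos with
  | nil => simp
  | cons m l ih =>
    simp only [List.map_cons, List.sum_cons, ih, monP, Pi.smul_apply, smul_eq_mul]
    ring

/-- The basis vectors. -/
def eV (a : Fin 27) : Fin 27 → F := Pi.single a 1

/-- The action on vectors. -/
def act (g : GL (Fin 27) F) (v : Fin 27 → F) : Fin 27 → F := (g : Matrix (Fin 27) (Fin 27) F) *ᵥ v

theorem act_mul (g h : GL (Fin 27) F) (v : Fin 27 → F) : act (g * h) v = act g (act h v) := by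
  simp [act, Matrix.mulVec_mulVec]

theorem act_one (v : Fin 27 → F) : act (1 : GL (Fin 27) F) v = v := by simp [act]

theorem act_add (g : GL (Fin 27) F) (u v : Fin 27 → F) : act g (u + v) = act g u + act g v := by
  simp [act, Matrix.mulVec_add]

theorem act_smul (g : GL (Fin 27) F) (c : F) (v : Fin 27 → F) : act g (c • v) = c • act g v := by
  simp [act, Matrix.mulVec_smul]

theorem act_inv (g : GL (Fin 27) F) (v : Fin 27 → F) : act g (act g⁻¹ v) = v := by
  rw [← act_mul, mul_inv_cancel, act_one]

theorem gl_ext {g h : GL (Fin 27) F} (e : ∀ v, act g v = act h v) : g = h := by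
  refine Units.ext (Matrix.ext fun i j => ?_)
  have := congrFun (e (Pi.single j 1)) i
  simpa [act, Matrix.mulVec_single] using this

theorem gl_ext_basis {g h : GL (Fin 27) F} (e : ∀ a, act g (eV a) = act h (eV a)) : g = h := by
  refine Units.ext (Matrix.ext fun i j => ?_)
  have := congrFun (e j) i
  simpa [act, eV, Matrix.mulVec_single] using this

/-- The isometry group. -/
def cubicGroup (F : Type*) [Field F] : Subgroup (GL (Fin 27) F) := Cfsg.Lie.funStab F cT

theorem mem_cubicGroup {g : GL (Fin 27) F} : g ∈ cubicGroup F ↔ ∀ v, cT (act g v) = cT v := Iff.rfl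

theorem cD_act {g : GL (Fin 27) F} (hF : ∃ s : F, s ≠ 0 ∧ s ≠ 1) (hg : g ∈ cubicGroup F)
    (v u : Fin 27 → F) : cD (act g v) (act g u) = cD v u := by
  have h : ∀ s : F, s * (cD (act g v) (act g u) - cD v u) + s ^ 2 * (cD (act g u) (act g v) - cD u v) = 0 := by
    intro s
    have e := mem_cubicGroup.1 hg (v + s • u)
    rw [act_add, act_smul, cT_line, cT_line, mem_cubicGroup.1 hg v, mem_cubicGroup.1 hg u] at e
    linear_combination e
  obtain ⟨s, h0, h1⟩ := hF
  have e1 := h 1
  have e2 := h s
  have h3 : (s - s ^ 2) * (cD (act g v) (act g u) - cD v u) = 0 := by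
    linear_combination e2 - s ^ 2 * e1
  have h4 : s - s ^ 2 ≠ 0 := by
    intro e
    have : s * (1 - s) = 0 := by linear_combination e
    rcases mul_eq_zero.1 this with e' | e'
    · exact h0 e'
    · exact h1 (sub_eq_zero.1 e').symm
  exact sub_eq_zero.1 ((mul_eq_zero.1 h3).resolve_left h4)

theorem cP_act {g : GL (Fin 27) F} (hF : ∃ s : F, s ≠ 0 ∧ s ≠ 1) (hg : g ∈ cubicGroup F)
    (u v w : Fin 27 → F) : cP (act g u) (act g v) (act g w) = cP u v w := by
  simp only [cP_eq, ← act_add, cD_act hF hg]

/-! ### Root matrices -/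

/-- The entry of the root matrix in row `a`: the source and the coefficient. -/
def srcC (r : Fin 72) (a : Fin 27) : Fin 27 × ℤ :=
  match (rootEnt.getD r.val []).find? (fun e => e.1 == a.val) with
  | none => (a, 0)
  | some e => (fi e.2.1, e.2.2)

/-- The source. -/
def src (r : Fin 72) (a : Fin 27) : Fin 27 := (srcC r a).1

/-- The coefficient. -/
def coef (r : Fin 72) (a : Fin 27) : ℤ := (srcC r a).2

theorem sq_zero_ok : ∀ r a, coef r a ≠ 0 → coef r (src r a) = 0 := by
  decide +kernel

/-- A product of two expanded coordinates and a third, as keyed terms. -/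
def expand (r : Fin 72) (a : Fin 27) : List (ℕ × Fin 27 × ℤ) :=
  if coef r a = 0 then [(0, a, 1)] else [(0, a, 1), (1, src r a, coef r a)]

/-- Sort three indices. -/
def sort3 (a b c : ℕ) : ℕ × ℕ × ℕ :=
  if a ≤ b then (if b ≤ c then (a, b, c) else if a ≤ c then (a, c, b) else (c, a, b))
  else (if a ≤ c then (b, a, c) else if b ≤ c then (b, c, a) else (c, b, a))

/-- The difference of a transformed monomial and the monomial. -/
def diffTerms (r : Fin 72) (m : ℤ × Fin 27 × Fin 27 × Fin 27) : List ((ℕ × ℕ × ℕ × ℕ) × ℤ) :=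
  ((expand r m.2.1).flatMap fun x => (expand r m.2.2.1).flatMap fun y => (expand r m.2.2.2).map fun z =>
    ((x.1 + y.1 + z.1, sort3 x.2.1.val y.2.1.val z.2.1.val), m.1 * (x.2.2 * y.2.2 * z.2.2))) ++
    [((0, sort3 m.2.1.val m.2.2.1.val m.2.2.2.val), -m.1)]

/-- The value of a key. -/
def keyV (t : F) (v : Fin 27 → F) (k : ℕ × ℕ × ℕ × ℕ) : F :=
  t ^ k.1 * (v (fi k.2.1) * v (fi k.2.2.1) * v (fi k.2.2.2))

/-- The value of keyed terms. -/
def termsV (t : F) (v : Fin 27 → F) (l : List ((ℕ × ℕ × ℕ × ℕ) × ℤ)) : F :=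
  (l.map fun x => (x.2 : F) * keyV t v x.1).sum

/-- All keys cancel. -/
def cancelB : ℕ → List ((ℕ × ℕ × ℕ × ℕ) × ℤ) → Bool
  | _, [] => true
  | 0, _ :: _ => false
  | f + 1, x :: l =>
    decide ((((x :: l).filter fun y => y.1 == x.1).map Prod.snd).sum = 0) &&
      cancelB f ((x :: l).filter fun y => !(y.1 == x.1))

theorem termsV_cancel (t : F) (v : Fin 27 → F) :
    ∀ (f : ℕ) (l : List ((ℕ × ℕ × ℕ × ℕ) × ℤ)), cancelB f l = true → termsV t v l = 0 := by
  intro f
  induction f with
  | zero => intro l h; cases l with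
    | nil => simp [termsV]
    | cons x l => simp [cancelB] at h
  | succ f ih =>
    intro l h
    cases l with
    | nil => simp [termsV]
    | cons x l =>
      simp only [cancelB, Bool.and_eq_true, decide_eq_true_eq] at h
      have hsplit : ∀ L : List ((ℕ × ℕ × ℕ × ℕ) × ℤ), termsV t v L =
          (((L.filter fun y => y.1 == x.1).map Prod.snd).sum : ℤ) * keyV t v x.1 +
            termsV t v (L.filter fun y => !(y.1 == x.1)) := by
        intro L
        induction L with
        | nil => simp [termsV]
        | cons y L ihL =>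
          have e : termsV t v (y :: L) = (y.2 : F) * keyV t v y.1 + termsV t v L := rfl
          rw [e, ihL]
          by_cases hy : y.1 = x.1
          · simp [hy, termsV]
            ring
          · simp [hy, termsV]
            ring
      rw [hsplit, h.1, ih _ h.2]
      simp

/-- The cancellation check for one root. -/
def diffB (r : Fin 72) : Bool :=
  cancelB 400 ((monos.flatMap (diffTerms r)).filter fun x => !(x.2 == 0))

theorem diff_ok0 : ∀ r : Fin 72, r.val / 12 = 0 → diffB r = true := by decide +kernel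

theorem diff_ok1 : ∀ r : Fin 72, r.val / 12 = 1 → diffB r = true := by decide +kernel

theorem diff_ok2 : ∀ r : Fin 72, r.val / 12 = 2 → diffB r = true := by decide +kernel

theorem diff_ok3 : ∀ r : Fin 72, r.val / 12 = 3 → diffB r = true := by decide +kernel

theorem diff_ok4 : ∀ r : Fin 72, r.val / 12 = 4 → diffB r = true := by decide +kernel

theorem diff_ok5 : ∀ r : Fin 72, r.val / 12 = 5 → diffB r = true := by decide +kernel

theorem diff_ok : ∀ r, cancelB 400
    ((monos.flatMap (diffTerms r)).filter fun x => !(x.2 == 0)) = true := by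
  intro r
  have h : r.val / 12 < 6 := by omega
  show diffB r = true
  interval_cases h' : r.val / 12
  · exact diff_ok0 r h'
  · exact diff_ok1 r h'
  · exact diff_ok2 r h'
  · exact diff_ok3 r h'
  · exact diff_ok4 r h'
  · exact diff_ok5 r h'

theorem keyV_sort3 (t : F) (v : Fin 27 → F) (k : ℕ) (a b c : Fin 27) :
    keyV t v (k, sort3 a.val b.val c.val) = t ^ k * (v a * v b * v c) := by
  have h : ∀ a : Fin 27, fi a.val = a := fun a => by simp [fi]
  unfold sort3
  split_ifs <;> simp [keyV, h] <;> ring_nf <;> simp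

/-- The root matrix. -/
def rootMat (r : Fin 72) : Matrix (Fin 27) (Fin 27) F :=
  Matrix.of fun a b => if b = src r a then (coef r a : F) else 0

theorem rootMat_mulVec (r : Fin 72) (v : Fin 27 → F) (a : Fin 27) :
    (rootMat r *ᵥ v) a = (coef r a : F) * v (src r a) := by
  simp [rootMat, Matrix.mulVec, dotProduct, ite_mul]

theorem rootMat_sq (r : Fin 72) : (rootMat r : Matrix (Fin 27) (Fin 27) F) * rootMat r = 0 := by
  ext a b
  simp only [rootMat, Matrix.mul_apply, Matrix.of_apply, ite_mul, zero_mul, Finset.sum_ite_eq',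
    Finset.mem_univ, if_true, Matrix.zero_apply]
  by_cases h : coef r a = 0
  · simp [h]
  · simp [sq_zero_ok r a h]

/-- The root element. -/
def uG (r : Fin 72) (t : F) : GL (Fin 27) F where
  val := 1 + t • rootMat r
  inv := 1 + (-t) • rootMat r
  val_inv := by simp [add_mul, mul_add, rootMat_sq]
  inv_val := by simp [add_mul, mul_add, rootMat_sq]

theorem act_uG (r : Fin 72) (t : F) (v : Fin 27 → F) (a : Fin 27) :
    act (uG r t) v a = v a + t * ((coef r a : F) * v (src r a)) := by
  simp [act, uG, Matrix.add_mulVec, Matrix.smul_mulVec, rootMat_mulVec]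

theorem uG_zero (r : Fin 72) : uG r (0 : F) = 1 := Units.ext (by simp [uG])

theorem expand_sum (r : Fin 72) (t : F) (v : Fin 27 → F) (a : Fin 27) :
    act (uG r t) v a = ((expand r a).map fun x => t ^ x.1 * ((x.2.2 : F) * v x.2.1)).sum := by
  rw [act_uG, expand]
  split_ifs with h <;> simp [h]

theorem uG_mem (r : Fin 72) (t : F) : uG r t ∈ cubicGroup F := by
  rw [mem_cubicGroup]
  intro v
  have h0 : termsV t v (monos.flatMap (diffTerms r)) = 0 := by
    have e : ∀ l : List ((ℕ × ℕ × ℕ × ℕ) × ℤ), termsV t v (l.filter fun x => !(x.2 == 0)) = termsV t v l := by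
      intro l
      induction l with
      | nil => rfl
      | cons x l ih =>
        by_cases hx : x.2 = 0 <;> simp [hx, termsV] at ih ⊢ <;> rw [ih]
    rw [← e]
    exact termsV_cancel t v _ _ (diff_ok r)
  have happ : ∀ a b : List ((ℕ × ℕ × ℕ × ℕ) × ℤ), termsV t v (a ++ b) = termsV t v a + termsV t v b :=
    fun a b => by simp [termsV]
  have key : ∀ m, termsV t v (diffTerms r m) = monV (act (uG r t) v) m - monV v m := by
    intro m
    rw [diffTerms, happ, monV, monV, expand_sum, expand_sum, expand_sum, sub_eq_add_neg]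
    congr 1
    · unfold expand
      split_ifs <;> simp [termsV, keyV_sort3] <;> ring
    · simp [termsV, keyV_sort3]
  rw [← sub_eq_zero, ← h0, cT, cT]
  induction monos with
  | nil => simp [termsV]
  | cons m l ih =>
    rw [List.flatMap_cons, happ, key, List.map_cons, List.map_cons, List.sum_cons, List.sum_cons, ← ih]
    ring

end CfsgLib.Chevalley.E6Cubic
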