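import Cfsg.Agent.Lib.Chevalley.E6Cubic.Form

/-! The isometry group of the cubic form is generated by the root elements. -/

set_option autoImplicit false
set_option maxRecDepth 100000
set_option linter.unusedSectionVars false
set_option linter.unusedSimpArgs false

namespace CfsgLib.Chevalley.E6Cubic

open Matrix

variable {F : Type*} [Field F]

/-- The group generated by the root elements. -/
def rootGroup (F : Type*) [Field F] : Subgroup (GL (Fin 27) F) :=
  Subgroup.closure (Set.range fun p : Fin 72 × F => uG p.1 p.2)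

theorem uG_mem_rootGroup (r : Fin 72) (t : F) : uG r t ∈ rootGroup F :=
  Subgroup.subset_closure ⟨(r, t), rfl⟩

theorem rootGroup_le : rootGroup F ≤ cubicGroup F := by
  rw [rootGroup, Subgroup.closure_le]
  rintro _ ⟨⟨r, t⟩, rfl⟩
  exact uG_mem r t

/-! ### Monomial elements -/

theorem pair_ok : ∀ r a, coef r a ≠ 0 →
    src (Fin.rev r) (src r a) = a ∧ coef (Fin.rev r) (src r a) * coef r a = 1 ∧ coef (Fin.rev r) a = 0 := by
  decide +kernel

/-- The monomial element of a root. -/
def nE (r : Fin 72) (c : F) : GL (Fin 27) F := uG r c * uG (Fin.rev r) (-c⁻¹) * uG r c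

theorem nE_mem (r : Fin 72) (c : F) : nE r c ∈ rootGroup F :=
  mul_mem (mul_mem (uG_mem_rootGroup _ _) (uG_mem_rootGroup _ _)) (uG_mem_rootGroup _ _)

/-- The scalar of the monomial element in a row. -/
def nScal (r : Fin 72) (c : F) (x : Fin 27) : F :=
  if coef r x ≠ 0 then c * (coef r x : F)
  else if coef (Fin.rev r) x ≠ 0 then -(c⁻¹ * (coef (Fin.rev r) x : F)) else 1

/-- The source of the monomial element in a row. -/
def nSrc (r : Fin 72) (x : Fin 27) : Fin 27 :=
  if coef r x ≠ 0 then src r x else if coef (Fin.rev r) x ≠ 0 then src (Fin.rev r) x else x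

theorem act_nE (r : Fin 72) {c : F} (hc : c ≠ 0) (v : Fin 27 → F) (x : Fin 27) :
    act (nE r c) v x = nScal r c x * v (nSrc r x) := by
  simp only [nE, act_mul, act_uG, nScal, nSrc]
  by_cases h1 : coef r x = 0
  · by_cases h2 : coef (Fin.rev r) x = 0
    · simp [h1, h2]
    · obtain ⟨e1, e2, -⟩ := pair_ok (Fin.rev r) x h2
      rw [Fin.rev_rev] at e1 e2
      have e2' : ((coef r (src (Fin.rev r) x) : ℤ) : F) * (coef (Fin.rev r) x : F) = 1 := by
        exact_mod_cast congrArg (Int.cast (R := F)) e2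
      simp only [h1, h2, ne_eq, not_true_eq_false, not_false_eq_true, if_true, if_false, e1,
        Int.cast_zero, zero_mul, mul_zero, add_zero]
      field_simp
      linear_combination (-(c * v x)) * e2'
  · obtain ⟨e1, e2, e3⟩ := pair_ok r x h1
    have e4 : coef r (src r x) = 0 := sq_zero_ok r x h1
    have e2' : ((coef (Fin.rev r) (src r x) : ℤ) : F) * (coef r x : F) = 1 := by
      exact_mod_cast congrArg (Int.cast (R := F)) e2
    simp only [h1, ne_eq, not_false_eq_true, if_true, e1, e3, e4, Int.cast_zero, zero_mul, mul_zero, add_zero]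
    field_simp
    linear_combination (-(v x + c * (coef r x : F) * v (src r x))) * e2'

/-- Where the monomial element sends a coordinate. -/
def mv (r : Fin 72) (x : Fin 27) : Fin 27 :=
  if coef (Fin.rev r) x ≠ 0 then src (Fin.rev r) x else if coef r x ≠ 0 then src r x else x

theorem mv_ok : ∀ r x, nSrc r (mv r x) = x := by
  decide +kernel

theorem nScal_ne (r : Fin 72) {c : F} (hc : c ≠ 0) (x : Fin 27) : nScal r c x ≠ 0 := by
  have key : ∀ (r : Fin 72) (x : Fin 27), coef r x ≠ 0 → ((coef r x : ℤ) : F) ≠ 0 := fun r x h e => by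
    have e2' : ((coef (Fin.rev r) (src r x) : ℤ) : F) * (coef r x : F) = 1 := by
      exact_mod_cast congrArg (Int.cast (R := F)) (pair_ok r x h).2.1
    rw [e, mul_zero] at e2'
    exact zero_ne_one e2'
  unfold nScal
  split_ifs with h1 h2
  · exact mul_ne_zero hc (key r x h1)
  · exact neg_ne_zero.2 (mul_ne_zero (inv_ne_zero hc) (key _ x h2))
  · exact one_ne_zero

theorem act_nE_mv (r : Fin 72) {c : F} (hc : c ≠ 0) (v : Fin 27 → F) {x : Fin 27} (hx : v x ≠ 0) :
    act (nE r c) v (mv r x) ≠ 0 := by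
  rw [act_nE r hc, mv_ok]
  exact mul_ne_zero (nScal_ne r hc _) hx

theorem act_uG_fix {r : Fin 72} {a : Fin 27} (h : coef (Fin.rev r) a = 0) (t : F) :
    act (uG r t) (eV a) = eV a := by
  funext y
  rw [act_uG]
  by_cases hy : coef r y = 0
  · simp [hy]
  · have hne : src r y ≠ a := fun e => by
      obtain ⟨-, h2, -⟩ := pair_ok r y hy
      rw [e, h, zero_mul] at h2
      exact zero_ne_one h2
    simp [eV, hne]

/-! ### Coefficient lists -/

/-- The terms of `cP (eV a) v (eV z)`. -/
def pTerms (a z : Fin 27) : List (ℤ × Fin 27) :=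
  monos.flatMap fun m =>
    (if m.2.1 = a ∧ m.2.2.2 = z then [(m.1, m.2.2.1)] else []) ++
    (if m.2.2.1 = a ∧ m.2.2.2 = z then [(m.1, m.2.1)] else []) ++
    (if m.2.1 = a ∧ m.2.2.1 = z then [(m.1, m.2.2.2)] else []) ++
    (if m.2.2.2 = a ∧ m.2.2.1 = z then [(m.1, m.2.1)] else []) ++
    (if m.2.2.1 = a ∧ m.2.1 = z then [(m.1, m.2.2.2)] else []) ++
    (if m.2.2.2 = a ∧ m.2.1 = z then [(m.1, m.2.2.1)] else [])

theorem cP_basis (a z : Fin 27) (v : Fin 27 → F) :
    cP (eV a) v (eV z) = ((pTerms a z).map fun x => (x.1 : F) * v x.2).sum := by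
  have e : ∀ (c : Prop) [Decidable c] (s : ℤ) (q : Fin 27),
      ((if c then [(s, q)] else []).map fun x => (x.1 : F) * v x.2).sum = if c then (s : F) * v q else 0 :=
    fun c _ s q => by split_ifs <;> simp
  have d : ∀ (p q a z : Fin 27), (eV a p : F) * eV z q = if p = a ∧ q = z then 1 else 0 := fun p q a z => by
    by_cases h1 : p = a <;> by_cases h2 : q = z <;> simp [eV, h1, h2]
  unfold cP pTerms
  induction monos with
  | nil => simp
  | cons m l ih =>
    rw [List.map_cons, List.sum_cons, ih, List.flatMap_cons, List.map_append, List.sum_append]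
    congr 1
    simp only [List.map_append, List.sum_append, e]
    have : monP (eV a) v (eV z) m = (m.1 : F) *
        ((eV a m.2.1 * eV z m.2.2.2) * v m.2.2.1 + (eV a m.2.2.1 * eV z m.2.2.2) * v m.2.1 +
        (eV a m.2.1 * eV z m.2.2.1) * v m.2.2.2 + (eV a m.2.2.2 * eV z m.2.2.1) * v m.2.1 +
        (eV a m.2.2.1 * eV z m.2.1) * v m.2.2.2 + (eV a m.2.2.2 * eV z m.2.1) * v m.2.2.1) := by
      simp only [monP]; ring
    rw [this]
    simp only [d, ite_mul, one_mul, zero_mul, mul_add, mul_ite, mul_zero]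

/-- The coordinates sharing a monomial with `a`. -/
def partners (a : Fin 27) : List (Fin 27) :=
  monos.flatMap fun m =>
    (if m.2.1 = a then [m.2.2.1, m.2.2.2] else []) ++
    (if m.2.2.1 = a then [m.2.1, m.2.2.2] else []) ++
    (if m.2.2.2 = a then [m.2.1, m.2.2.1] else [])

theorem cP_eq_zero (a : Fin 27) (v : Fin 27 → F) (h : ∀ x ∈ partners a, v x = 0) (u : Fin 27 → F) :
    cP (eV a) v u = 0 := by
  refine List.sum_eq_zero fun z hz => ?_
  obtain ⟨m, hm, rfl⟩ := List.mem_map.1 hz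
  have k : ∀ x, x ∈ (if m.2.1 = a then [m.2.2.1, m.2.2.2] else []) ++
      (if m.2.2.1 = a then [m.2.1, m.2.2.2] else []) ++
      (if m.2.2.2 = a then [m.2.1, m.2.2.1] else []) → v x = 0 :=
    fun x hx => h x (List.mem_flatMap.2 ⟨m, hm, hx⟩)
  have p : ∀ i j, (i = a → v j = 0) → (eV a i : F) * v j = 0 := fun i j hij => by
    by_cases hi : i = a
    · rw [hij hi, mul_zero]
    · simp [eV, hi]
  have e1 := p m.2.1 m.2.2.1 fun e => k _ (by simp [e])
  have e2 := p m.2.1 m.2.2.2 fun e => k _ (by simp [e])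
  have e3 := p m.2.2.1 m.2.1 fun e => k _ (by simp [e])
  have e4 := p m.2.2.1 m.2.2.2 fun e => k _ (by simp [e])
  have e5 := p m.2.2.2 m.2.1 fun e => k _ (by simp [e])
  have e6 := p m.2.2.2 m.2.2.1 fun e => k _ (by simp [e])
  simp only [monP]
  linear_combination (m.1 : F) * u m.2.2.2 * e1 + (m.1 : F) * u m.2.2.1 * e2 + (m.1 : F) * u m.2.2.2 * e3 +
    (m.1 : F) * u m.2.1 * e4 + (m.1 : F) * u m.2.2.1 * e5 + (m.1 : F) * u m.2.1 * e6

/-- The terms of `cD v (eV d)`. -/
def dTerms (d : Fin 27) : List (ℤ × Fin 27 × Fin 27) :=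
  monos.flatMap fun m =>
    (if m.2.1 = d then [(m.1, m.2.2.1, m.2.2.2)] else []) ++
    (if m.2.2.1 = d then [(m.1, m.2.1, m.2.2.2)] else []) ++
    (if m.2.2.2 = d then [(m.1, m.2.1, m.2.2.1)] else [])

theorem cD_basis (d : Fin 27) (v : Fin 27 → F) :
    cD v (eV d) = ((dTerms d).map fun x => (x.1 : F) * (v x.2.1 * v x.2.2)).sum := by
  have e : ∀ (c : Prop) [Decidable c] (s : ℤ) (p q : Fin 27),
      ((if c then [(s, p, q)] else []).map fun x => (x.1 : F) * (v x.2.1 * v x.2.2)).sum =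
        if c then (s : F) * (v p * v q) else 0 :=
    fun c _ s p q => by split_ifs <;> simp
  unfold cD dTerms
  induction monos with
  | nil => simp
  | cons m l ih =>
    rw [List.map_cons, List.sum_cons, ih, List.flatMap_cons, List.map_append, List.sum_append]
    congr 1
    simp only [List.map_append, List.sum_append, e, monD, eV, Pi.single_apply]
    split_ifs <;> ring

/-- The terms of `cD v (eV d)` that are not known to vanish. -/
def dLive (d : Fin 27) (K : List (Fin 27)) : List (ℤ × Fin 27 × Fin 27) :=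
  (dTerms d).filter fun x => !(K.contains x.2.1) && !(K.contains x.2.2)

theorem cD_live (d : Fin 27) (v : Fin 27 → F) (K : List (Fin 27)) (hK : ∀ y ∈ K, v y = 0) :
    cD v (eV d) = ((dLive d K).map fun x => (x.1 : F) * (v x.2.1 * v x.2.2)).sum := by
  rw [cD_basis, dLive]
  generalize dTerms d = l
  induction l with
  | nil => simp
  | cons x l ih =>
    by_cases h1 : x.2.1 ∈ K
    · simp [h1, ih, hK _ h1]
    · by_cases h2 : x.2.2 ∈ K
      · simp [h2, ih, hK _ h2]
      · simp [h1, h2, ih]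

/-! ### The step certificate -/

/-- A list of a single signed coordinate. -/
def single1 (l : List (ℤ × Fin 27)) (x : Fin 27) : Bool :=
  match l with
  | [(s, y)] => decide (s.natAbs = 1 ∧ y = x)
  | _ => false

/-- A list of a single signed product. -/
def single2 (l : List (ℤ × Fin 27 × Fin 27)) (w o : Fin 27) : Bool :=
  match l with
  | [(s, p, q)] => decide (s.natAbs = 1 ∧ ((p = w ∧ q = o) ∨ (p = o ∧ q = w)))
  | _ => false

/-- The zero coordinates of a step. -/
def Step.zl (st : Step) : List (Fin 27) := st.zs.map fun e => fi e.1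

/-- The coordinates with a word. -/
def Step.dom (st : Step) : List (Fin 27) := st.words.map fun e => fi e.1

/-- Check of the zero coordinates. -/
def zOK (L : List (Fin 27)) (w : Fin 27) (e : ℕ × ℕ × ℕ) : Bool :=
  decide (fi e.2.1 ∈ L ∧ w ∉ partners (fi e.2.1)) && single1 (pTerms (fi e.2.1) (fi e.2.2)) (fi e.1)

/-- Check of the reason for a non-zero coordinate. -/
def kindOK (L : List (Fin 27)) (st : Step) : Bool :=
  match st.kind with
  | .all => decide (∀ x, x ∈ st.zl ∨ x ∈ st.dom)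
  | .meets a z => decide (fi a ∈ L ∧ ∀ x ∈ partners (fi a), x ∈ st.zl ∨ x ∈ st.dom) &&
      single1 (pTerms (fi a) (fi z)) (fi st.w)
  | .fixed a c => decide (fi a ∈ L ∧ fi c ∈ L ∧ fi st.w ∈ st.dom) &&
      single1 (pTerms (fi a) (fi c)) (fi st.w)

/-- Check of a word. -/
def wordOK (L : List (Fin 27)) (w : Fin 27) (e : ℕ × List ℕ) : Bool :=
  decide ((∀ r ∈ e.2, ∀ a ∈ L, coef (fr r) a = 0 ∧ coef (Fin.rev (fr r)) a = 0) ∧
    e.2.foldr (fun r x => mv (fr r) x) (fi e.1) = w)

/-- The effect of a move on the known zero coordinates. -/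
def opRun (L Z : List (Fin 27)) (w : Fin 27) (K : List (Fin 27)) : Op → Option (List (Fin 27))
  | .clear r x =>
    if coef (fr r) (fi x) ≠ 0 ∧ src (fr r) (fi x) = w ∧ (∀ a ∈ L, coef (Fin.rev (fr r)) a = 0) ∧
        (coef (fr r) w = 0 ∨ src (fr r) w ∈ K) then
      some (Z ++ fi x :: K.filter fun y => decide (coef (fr r) y = 0 ∨ src (fr r) y ∈ K))
    else none
  | .sing d o =>
    if single2 (dLive (fi d) K) w (fi o) then some (fi o :: K) else none

/-- All moves. -/
def opsRun (L Z : List (Fin 27)) (w : Fin 27) : List (Fin 27) → List Op → Option (List (Fin 27))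
  | K, [] => some K
  | K, o :: l => (opRun L Z w K o).bind fun K' => opsRun L Z w K' l

/-- The check of a step. -/
def stepOK (L : List (Fin 27)) (st : Step) : Bool :=
  st.zs.all (zOK L (fi st.w)) && kindOK L st && st.words.all (wordOK L (fi st.w)) &&
    match opsRun L st.zl (fi st.w) st.zl st.ops with
    | none => false
    | some K => decide (∀ x, x = fi st.w ∨ x ∈ K)

/-- The check of all steps. -/
def stepsOK : List (Fin 27) → List Step → Bool
  | L, [] => decide (∀ x, x ∈ L)
  | L, st :: l => stepOK L st && stepsOK (fi st.w :: L) l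

theorem steps_ok : stepsOK [] stepTab = true := by
  decide +kernel

/-! ### Reduction -/

/-- The lines of `L` are fixed. -/
def FixLines (L : List (Fin 27)) (g : GL (Fin 27) F) : Prop :=
  ∀ a ∈ L, ∃ s : F, s ≠ 0 ∧ act g (eV a) = s • eV a

theorem act_ne_zero (g : GL (Fin 27) F) (a : Fin 27) : act g (eV a) ≠ 0 := fun e => by
  have h : act g⁻¹ (act g (eV a)) = eV a := by rw [← act_mul, inv_mul_cancel, act_one]
  rw [e, act, Matrix.mulVec_zero] at h
  exact one_ne_zero (by simpa [eV] using (congrFun h a).symm : (1 : F) = 0)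

theorem single1_sum {l : List (ℤ × Fin 27)} {x : Fin 27} (h : single1 l x = true) (v : Fin 27 → F) :
    ∃ s : F, s ≠ 0 ∧ (l.map fun e => (e.1 : F) * v e.2).sum = s * v x := by
  match l, h with
  | [(s, y)], h =>
    simp only [single1, decide_eq_true_eq] at h
    obtain ⟨hs, rfl⟩ := h
    refine ⟨(s : F), ?_, by simp⟩
    rcases Int.natAbs_eq_iff.1 hs with rfl | rfl <;> simp

/-- A group element with the data of a step. -/
structure Good (L : List (Fin 27)) (w : Fin 27) (g : GL (Fin 27) F) : Prop where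
  mem : g ∈ cubicGroup F
  fix : FixLines L g

theorem Good.mul {L : List (Fin 27)} {w : Fin 27} {g ρ : GL (Fin 27) F} (h : Good L w g)
    (hρ : ρ ∈ rootGroup F) (hf : ∀ a ∈ L, act ρ (eV a) = eV a) : Good L w (ρ * g) := by
  refine ⟨mul_mem (rootGroup_le hρ) h.mem, fun a ha => ?_⟩
  obtain ⟨s, hs, e⟩ := h.fix a ha
  exact ⟨s, hs, by rw [act_mul, e, act_smul, hf a ha]⟩

theorem z_zero (hF : ∃ s : F, s ≠ 0 ∧ s ≠ 1) {L : List (Fin 27)} {w : Fin 27} {g : GL (Fin 27) F}
    (h : Good L w g) {e : ℕ × ℕ × ℕ} (he : zOK L w e = true) : act g (eV w) (fi e.1) = 0 := by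
  simp only [zOK, Bool.and_eq_true, decide_eq_true_eq] at he
  obtain ⟨⟨ha, hw⟩, he⟩ := he
  obtain ⟨s, hs, es⟩ := h.fix _ ha
  obtain ⟨k, hk, ek⟩ := single1_sum he (act g (eV w))
  rw [← cP_basis] at ek
  have h0 : cP (eV (fi e.2.1)) (eV w) (act g⁻¹ (eV (fi e.2.2))) = (0 : F) :=
    cP_eq_zero _ _ (fun x hx => by
      have : x ≠ w := fun e => hw (e ▸ hx)
      simp [eV, this]) _
  have h1 := cP_act hF h.mem (eV (fi e.2.1)) (eV w) (act g⁻¹ (eV (fi e.2.2)))
  rw [act_inv, es, cP_smul_left, ek, h0] at h1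
  exact (mul_eq_zero.1 ((mul_eq_zero.1 h1).resolve_left hs)).resolve_left hk

theorem exists_nonzero (hF : ∃ s : F, s ≠ 0 ∧ s ≠ 1) {L : List (Fin 27)} {st : Step}
    (hz : st.zs.all (zOK L (fi st.w)) = true) (hk : kindOK L st = true) {g : GL (Fin 27) F}
    (h : Good L (fi st.w) g) : ∃ x ∈ st.dom, act g (eV (fi st.w)) x ≠ 0 := by
  have hZ : ∀ x ∈ st.zl, act g (eV (fi st.w)) x = 0 := fun x hx => by
    obtain ⟨e, he, rfl⟩ := List.mem_map.1 hx
    exact z_zero hF h (List.all_eq_true.1 hz e he)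
  unfold kindOK at hk
  split at hk
  · simp only [decide_eq_true_eq] at hk
    by_contra hne
    push Not at hne
    exact act_ne_zero g _ (funext fun x => (hk x).elim (hZ x) (hne x))
  next a z _ =>
    simp only [Bool.and_eq_true, decide_eq_true_eq] at hk
    obtain ⟨⟨ha, hS⟩, hk⟩ := hk
    by_contra hne
    push Not at hne
    obtain ⟨s, hs, es⟩ := h.fix _ ha
    obtain ⟨k, hk0, ek⟩ := single1_sum hk (eV (fi st.w) : Fin 27 → F)
    rw [← cP_basis] at ek
    have h1 := cP_act hF h.mem (eV (fi a)) (eV (fi st.w)) (eV (fi z))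
    rw [es, cP_smul_left, cP_eq_zero _ _ (fun x hx => (hS x hx).elim (hZ x) (hne x)), ek] at h1
    simp [eV, eq_comm, hk0] at h1
  next a c _ =>
    simp only [Bool.and_eq_true, decide_eq_true_eq] at hk
    obtain ⟨⟨ha, hc, hw⟩, hk⟩ := hk
    refine ⟨_, hw, fun h0 => ?_⟩
    obtain ⟨s, hs, es⟩ := h.fix _ ha
    obtain ⟨s', hs', es'⟩ := h.fix _ hc
    obtain ⟨k, hk0, ek⟩ := single1_sum hk (eV (fi st.w) : Fin 27 → F)
    obtain ⟨k', -, ek'⟩ := single1_sum hk (act g (eV (fi st.w)))
    rw [← cP_basis] at ek ek'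
    have h1 := cP_act hF h.mem (eV (fi a)) (eV (fi st.w)) (eV (fi c))
    rw [es, es', cP_smul_left, cP_smul_right, ek', h0, ek] at h1
    simp [eV, eq_comm, hk0] at h1

theorem word_fix {L : List (Fin 27)} {word : List ℕ}
    (hw : ∀ r ∈ word, ∀ a ∈ L, coef (fr r) a = 0 ∧ coef (Fin.rev (fr r)) a = 0) :
    ∀ a ∈ L, act ((word.map fun r => nE (fr r) (1 : F)).prod) (eV a) = eV a := by
  intro a ha
  induction word with
  | nil => simp [act_one]
  | cons r l ih =>
    rw [List.map_cons, List.prod_cons, act_mul, ih fun q hq => hw q (List.mem_cons_of_mem _ hq)]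
    obtain ⟨h1, h2⟩ := hw r List.mem_cons_self a ha
    rw [nE, act_mul, act_mul, act_uG_fix h2, act_uG_fix (by rwa [Fin.rev_rev]), act_uG_fix h2]

theorem word_move {v : Fin 27 → F} {x : Fin 27} (hx : v x ≠ 0) : ∀ word : List ℕ,
    act ((word.map fun r => nE (fr r) (1 : F)).prod) v (word.foldr (fun r x => mv (fr r) x) x) ≠ 0
  | [] => by simpa [act_one] using hx
  | r :: l => by
    rw [List.map_cons, List.prod_cons, act_mul, List.foldr_cons]
    exact act_nE_mv _ one_ne_zero _ (word_move hx l)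

theorem ops_spec (hF : ∃ s : F, s ≠ 0 ∧ s ≠ 1) {L Z : List (Fin 27)} {w : Fin 27}
    (hZ : ∀ g : GL (Fin 27) F, Good L w g → ∀ x ∈ Z, act g (eV w) x = 0)
    (hsing : ∀ d, cD (eV w) (eV d) = (0 : F) ∧ ∀ u, cD (eV w) u = (0 : F)) :
    ∀ (ops : List Op) (K K' : List (Fin 27)) (g : GL (Fin 27) F), opsRun L Z w K ops = some K' →
      Good L w g → act g (eV w) w ≠ 0 → (∀ y ∈ K, act g (eV w) y = 0) →
      ∃ ρ ∈ rootGroup F, Good L w (ρ * g) ∧ act (ρ * g) (eV w) w ≠ 0 ∧
        ∀ y ∈ K', act (ρ * g) (eV w) y = 0 := by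
  intro ops
  induction ops with
  | nil =>
    intro K K' g h hg hw hK
    obtain rfl := Option.some.inj h
    exact ⟨1, one_mem _, by rw [one_mul]; exact ⟨hg, hw, hK⟩⟩
  | cons o l ih =>
    intro K K' g h hg hw hK
    simp only [opsRun, Option.bind_eq_some_iff] at h
    obtain ⟨K1, h1, h2⟩ := h
    obtain ⟨ρ, hρ, hg1, hw1, hK1⟩ : ∃ ρ ∈ rootGroup F, Good L w (ρ * g) ∧ act (ρ * g) (eV w) w ≠ 0 ∧
        ∀ y ∈ K1, act (ρ * g) (eV w) y = 0 := by
      cases o with
      | clear r x =>
        simp only [opRun] at h1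
        split_ifs at h1 with hc
        obtain rfl := Option.some.inj h1
        obtain ⟨hx, hsrc, hL, hwK⟩ := hc
        set r' := fr r
        set v := act g (eV w) with hv
        set t : F := -v (fi x) / ((coef r' (fi x) : F) * v w) with ht
        have hgood : Good L w (uG r' t * g) :=
          hg.mul (uG_mem_rootGroup _ _) fun a ha => act_uG_fix (hL a ha) t
        refine ⟨uG r' t, uG_mem_rootGroup _ _, hgood, ?_, ?_⟩
        · rw [act_mul, act_uG, ← hv]
          rcases hwK with h0 | h0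
          · simpa [h0] using hw
          · simpa [hK _ h0] using hw
        · intro y hy
          rcases List.mem_append.1 hy with hy | hy
          · exact hZ _ hgood y hy
          rcases List.mem_cons.1 hy with rfl | hy
          · have hk : ((coef r' (fi x) : ℤ) : F) ≠ 0 := fun e => by
              have e2 : ((coef (Fin.rev r') (src r' (fi x)) : ℤ) : F) * (coef r' (fi x) : F) = 1 := by
                exact_mod_cast congrArg (Int.cast (R := F)) (pair_ok r' _ hx).2.1
              rw [e, mul_zero] at e2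
              exact zero_ne_one e2
            rw [act_mul, act_uG, ← hv, hsrc, ht]
            field_simp
            ring
          · simp only [List.mem_filter, decide_eq_true_eq] at hy
            rw [act_mul, act_uG, ← hv, hK y hy.1]
            rcases hy.2 with h0 | h0
            · simp [h0]
            · simp [hK _ h0]
      | sing d o =>
        simp only [opRun] at h1
        split_ifs at h1 with hc
        obtain rfl := Option.some.inj h1
        refine ⟨1, one_mem _, ?_⟩
        rw [one_mul]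
        refine ⟨hg, hw, fun y hy => ?_⟩
        rcases List.mem_cons.1 hy with rfl | hy
        · have h0 : cD (act g (eV w)) (eV (fi d)) = 0 := by
            have := cD_act hF hg.mem (eV w) (act g⁻¹ (eV (fi d)))
            rwa [act_inv, (hsing (fi d)).2] at this
          rw [cD_live _ _ K hK] at h0
          revert hc h0
          generalize dLive (fi d) K = T
          intro hc h0
          match T, hc, h0 with
          | [(s, p, q)], hc, h0 =>
            simp only [single2, decide_eq_true_eq] at hc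
            obtain ⟨hs, hpq⟩ := hc
            have hs' : ((s : ℤ) : F) ≠ 0 := by
              rcases Int.natAbs_eq_iff.1 hs with rfl | rfl <;> simp
            simp only [List.map_cons, List.map_nil, List.sum_cons, List.sum_nil, add_zero] at h0
            rcases hpq with ⟨rfl, rfl⟩ | ⟨rfl, rfl⟩
            · exact (mul_eq_zero.1 ((mul_eq_zero.1 h0).resolve_left hs')).resolve_left hw
            · exact (mul_eq_zero.1 ((mul_eq_zero.1 h0).resolve_left hs')).resolve_right hw
        · exact hK y hy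
    obtain ⟨σ, hσ, hg2, hw2, hK2⟩ := ih K1 K' (ρ * g) h2 hg1 hw1 hK1
    exact ⟨σ * ρ, mul_mem hσ hρ, by rw [mul_assoc]; exact ⟨hg2, hw2, hK2⟩⟩

theorem cD_basis_self (w : Fin 27) (u : Fin 27 → F) : cD (eV w) u = 0 := by
  refine List.sum_eq_zero fun z hz => ?_
  obtain ⟨m, hm, rfl⟩ := List.mem_map.1 hz
  have hd : ∀ m ∈ monos, m.2.1 ≠ m.2.2.1 ∧ m.2.1 ≠ m.2.2.2 ∧ m.2.2.1 ≠ m.2.2.2 := by decide +kernel
  obtain ⟨h1, h2, h3⟩ := hd m hm
  simp only [monD, eV, Pi.single_apply]
  split_ifs <;> simp_all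

theorem step_spec (hF : ∃ s : F, s ≠ 0 ∧ s ≠ 1) {L : List (Fin 27)} {st : Step}
    (hst : stepOK L st = true) {g : GL (Fin 27) F} (hg : g ∈ cubicGroup F) (hfix : FixLines L g) :
    ∃ ρ ∈ rootGroup F, FixLines (fi st.w :: L) (ρ * g) := by
  simp only [stepOK, Bool.and_eq_true] at hst
  obtain ⟨⟨⟨hz, hk⟩, hwords⟩, hops⟩ := hst
  have h : Good L (fi st.w) g := ⟨hg, hfix⟩
  obtain ⟨x, hx, hxne⟩ := exists_nonzero hF hz hk h
  obtain ⟨e, he, rfl⟩ := List.mem_map.1 hx
  have hwe := List.all_eq_true.1 hwords e he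
  simp only [wordOK, decide_eq_true_eq] at hwe
  set ρ₀ := (e.2.map fun r => nE (fr r) (1 : F)).prod
  have hρ₀ : ρ₀ ∈ rootGroup F := Subgroup.list_prod_mem _ fun y hy => by
    obtain ⟨r, -, rfl⟩ := List.mem_map.1 hy
    exact nE_mem _ _
  have h1 := h.mul hρ₀ (word_fix hwe.1)
  have hw1 : act (ρ₀ * g) (eV (fi st.w)) (fi st.w) ≠ 0 := by
    have := word_move hxne e.2
    rw [hwe.2] at this
    rwa [act_mul]
  have hZ : ∀ g' : GL (Fin 27) F, Good L (fi st.w) g' → ∀ y ∈ st.zl, act g' (eV (fi st.w)) y = 0 :=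
    fun g' hg' y hy => by
      obtain ⟨e', he', rfl⟩ := List.mem_map.1 hy
      exact z_zero hF hg' (List.all_eq_true.1 hz e' he')
  split at hops
  · exact absurd hops Bool.false_ne_true
  next K hK =>
    simp only [decide_eq_true_eq] at hops
    obtain ⟨ρ₁, hρ₁, hg2, hw2, hK2⟩ := ops_spec hF hZ
      (fun d => ⟨cD_basis_self _ _, cD_basis_self _⟩) st.ops st.zl K (ρ₀ * g) hK h1 hw1 (hZ _ h1)
    refine ⟨ρ₁ * ρ₀, mul_mem hρ₁ hρ₀, fun a ha => ?_⟩
    rw [mul_assoc]
    rcases List.mem_cons.1 ha with rfl | ha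
    · refine ⟨_, hw2, funext fun y => ?_⟩
      rcases hops y with rfl | hy
      · simp [eV]
      · rw [hK2 y hy]
        by_cases hyw : y = fi st.w
        · exact absurd (hyw ▸ hK2 y hy) hw2
        · simp [eV, hyw]
    · exact hg2.fix a ha

theorem reduce_lines (hF : ∃ s : F, s ≠ 0 ∧ s ≠ 1) : ∀ (l : List Step) (L : List (Fin 27))
    (g : GL (Fin 27) F), stepsOK L l = true → g ∈ cubicGroup F → FixLines L g →
      ∃ ρ ∈ rootGroup F, ∀ a, ∃ s : F, s ≠ 0 ∧ act (ρ * g) (eV a) = s • eV a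
  | [], L, g, h, _, hf => by
    simp only [stepsOK, decide_eq_true_eq] at h
    exact ⟨1, one_mem _, by rw [one_mul]; exact fun a => hf a (h a)⟩
  | st :: l, L, g, h, hg, hf => by
    simp only [stepsOK, Bool.and_eq_true] at h
    obtain ⟨ρ, hρ, h1⟩ := step_spec hF h.1 hg hf
    obtain ⟨σ, hσ, h2⟩ := reduce_lines hF l _ (ρ * g) h.2 (mul_mem (rootGroup_le hρ) hg) h1
    exact ⟨σ * ρ, mul_mem hσ hρ, by rw [mul_assoc]; exact h2⟩

/-! ### The torus -/

/-- The fundamental roots. -/
def simpleR (i : Fin 6) : Fin 72 := fr ([56, 46, 42, 39, 37, 36].getD i.val 0)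

/-- The weights. -/
def wt (i : Fin 6) (x : Fin 27) : ℤ := (hTab.getD i.val []).getD x.val 0

/-- The base weights. -/
def baseAt (j : Fin 6) : Fin 27 := fi (baseW.getD j.val 0)

/-- The inverse of the base weight matrix. -/
def invAt (i j : Fin 6) : ℤ := (baseInv.getD i.val []).getD j.val 0

theorem wt_ok : ∀ i x, wt i x =
    if coef (simpleR i) x ≠ 0 then 1 else if coef (Fin.rev (simpleR i)) x ≠ 0 then -1 else 0 := by
  decide +kernel

/-- The torus element of a fundamental coroot. -/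
def hE (i : Fin 6) (c : F) : GL (Fin 27) F := nE (simpleR i) c * nE (simpleR i) (-1)

theorem act_hE (i : Fin 6) (c : Fˣ) (v : Fin 27 → F) (x : Fin 27) :
    act (hE i (c : F)) v x = ((c ^ wt i x : Fˣ) : F) * v x := by
  rw [hE, act_mul, act_nE _ c.ne_zero, act_nE _ (neg_ne_zero.2 one_ne_zero), wt_ok]
  set r := simpleR i
  simp only [nScal, nSrc]
  by_cases h1 : coef r x = 0
  · by_cases h2 : coef (Fin.rev r) x = 0
    · simp [h1, h2]
    · obtain ⟨e1, e2, -⟩ := pair_ok (Fin.rev r) x h2
      rw [Fin.rev_rev] at e1 e2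
      have e2' : ((coef r (src (Fin.rev r) x) : ℤ) : F) * (coef (Fin.rev r) x : F) = 1 := by
        exact_mod_cast congrArg (Int.cast (R := F)) e2
      have h3 : coef r (src (Fin.rev r) x) ≠ 0 := fun e => by rw [e, zero_mul] at e2; exact zero_ne_one e2
      simp only [h1, h2, h3, e1, ne_eq, not_true_eq_false, not_false_eq_true, if_true, if_false,
        _root_.zpow_neg, zpow_one, Units.val_inv_eq_inv_val]
      linear_combination ((c : F)⁻¹ * v x) * e2'
  · obtain ⟨e1, e2, e3⟩ := pair_ok r x h1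
    have e4 : coef r (src r x) = 0 := sq_zero_ok r x h1
    have h5 : coef (Fin.rev r) (src r x) ≠ 0 := fun e => by rw [e, zero_mul] at e2; exact zero_ne_one e2
    have e2' : ((coef (Fin.rev r) (src r x) : ℤ) : F) * (coef r x : F) = 1 := by
      exact_mod_cast congrArg (Int.cast (R := F)) e2
    simp only [h1, e4, h5, e1, ne_eq, not_true_eq_false, not_false_eq_true, if_true, if_false, zpow_one,
      inv_neg, inv_one, neg_mul, neg_neg, one_mul]
    linear_combination ((c : F) * v x) * e2'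

theorem inv_ok : ∀ j k : Fin 6, (∑ i : Fin 6, invAt i j * wt i (baseAt k)) = if j = k then 1 else 0 := by
  decide +kernel

/-- The coordinates reached by spreading from the base weights. -/
def spreadRun : List (Fin 27) → List (ℕ × ℕ) → Option (List (Fin 27))
  | K, [] => some K
  | K, e :: l =>
    match monos[e.1]? with
    | none => none
    | some m =>
      if (m.2.1 = fi e.2 ∧ m.2.2.1 ∈ K ∧ m.2.2.2 ∈ K) ∨ (m.2.2.1 = fi e.2 ∧ m.2.1 ∈ K ∧ m.2.2.2 ∈ K) ∨
          (m.2.2.2 = fi e.2 ∧ m.2.1 ∈ K ∧ m.2.2.1 ∈ K) then spreadRun (fi e.2 :: K) l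
      else none

theorem spread_ok : ((spreadRun ((List.finRange 6).map baseAt) spreadTab).map fun K =>
    decide (∀ x, x ∈ K)) = some true := by
  decide +kernel

theorem mono_single : ∀ m ∈ monos, single1 (pTerms m.2.1 m.2.2.2) m.2.2.1 = true ∧
    (∑ i : Fin 6, (wt i m.2.1 + wt i m.2.2.1 + wt i m.2.2.2).natAbs) = 0 := by
  decide +kernel

theorem spread_spec {e : Fin 27 → Fˣ} (he : ∀ m ∈ monos, e m.2.1 * e m.2.2.1 * e m.2.2.2 = 1) :
    ∀ (l : List (ℕ × ℕ)) (K K' : List (Fin 27)), spreadRun K l = some K' → (∀ x ∈ K, e x = 1) →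
      ∀ x ∈ K', e x = 1
  | [], K, K', h, hK => by obtain rfl := Option.some.inj h; exact hK
  | p :: l, K, K', h, hK => by
    simp only [spreadRun] at h
    split at h
    · cases h
    next m hm =>
      split_ifs at h with hc
      refine spread_spec he l _ K' h fun x hx => ?_
      rcases List.mem_cons.1 hx with rfl | hx
      · have := he m (List.mem_of_getElem? hm)
        rcases hc with ⟨e1, h2, h3⟩ | ⟨e1, h2, h3⟩ | ⟨e1, h2, h3⟩ <;>
          rw [hK _ h2, hK _ h3] at this <;> rw [← e1] <;> simpa using this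
      · exact hK x hx

theorem diagonal_mem (hF : ∃ s : F, s ≠ 0 ∧ s ≠ 1) {g : GL (Fin 27) F} (hg : g ∈ cubicGroup F)
    (hd : ∀ a, ∃ s : F, s ≠ 0 ∧ act g (eV a) = s • eV a) : g ∈ rootGroup F := by
  choose s hs hse using hd
  let d : Fin 27 → Fˣ := fun a => Units.mk0 (s a) (hs a)
  have hd3 : ∀ m ∈ monos, d m.2.1 * d m.2.2.1 * d m.2.2.2 = 1 := by
    intro m hm
    obtain ⟨k, hk, ek⟩ := single1_sum (mono_single m hm).1 (eV m.2.2.1 : Fin 27 → F)
    rw [← cP_basis] at ek
    have h1 := cP_act hF hg (eV m.2.1) (eV m.2.2.1) (eV m.2.2.2)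
    rw [hse, hse, hse, cP_smul_left, cP_smul_mid, cP_smul_right, ek] at h1
    simp [eV] at h1
    refine Units.ext ?_
    show s m.2.1 * s m.2.2.1 * s m.2.2.2 = 1
    exact mul_right_cancel₀ hk (by linear_combination h1)
  let c : Fin 6 → Fˣ := fun i => ∏ j, d (baseAt j) ^ invAt i j
  let χ : Fin 27 → Fˣ := fun x => ∏ i, c i ^ wt i x
  have hchi : ∀ m ∈ monos, χ m.2.1 * χ m.2.2.1 * χ m.2.2.2 = 1 := by
    intro m hm
    have h0 := (Finset.sum_eq_zero_iff.1 (mono_single m hm).2)
    simp only [χ, ← Finset.prod_mul_distrib, ← _root_.zpow_add]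
    refine Finset.prod_eq_one fun i hi => ?_
    rw [Int.natAbs_eq_zero.1 (h0 i hi), zpow_zero]
  have hsum : ∀ (a : Fˣ) (f : Fin 6 → ℤ), (∏ i, a ^ f i) = a ^ ∑ i, f i := fun a f =>
    ((map_sum (zpowersHom Fˣ a).toAdditiveRight f Finset.univ).symm.trans rfl)
  have hbase : ∀ k, χ (baseAt k) = d (baseAt k) := by
    intro k
    simp only [χ, c, ← Finset.prod_zpow, ← _root_.zpow_mul]
    rw [Finset.prod_comm]
    simp only [hsum, inv_ok]
    rw [Finset.prod_eq_single k]
    · simp
    · intro j _ hj; simp [hj]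
    · simp
  have hall : ∀ x, χ x = d x := by
    intro x
    obtain ⟨K, hK, hKx⟩ := Option.map_eq_some_iff.1 spread_ok
    simp only [decide_eq_true_eq] at hKx
    have := spread_spec (e := fun x => χ x * (d x)⁻¹) (fun m hm => by
      have e1 := hchi m hm
      have e2 := hd3 m hm
      calc χ m.2.1 * (d m.2.1)⁻¹ * (χ m.2.2.1 * (d m.2.2.1)⁻¹) * (χ m.2.2.2 * (d m.2.2.2)⁻¹)
          = (χ m.2.1 * χ m.2.2.1 * χ m.2.2.2) * (d m.2.1 * d m.2.2.1 * d m.2.2.2)⁻¹ := by
            simp only [mul_inv]; ac_rfl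
        _ = 1 := by rw [e1, e2, inv_one, mul_one])
      spreadTab _ K hK (fun y hy => by
        obtain ⟨k, -, rfl⟩ := List.mem_map.1 hy
        rw [hbase, mul_inv_cancel]) x (hKx x)
    exact mul_inv_eq_one.1 this
  let ρ := ((List.finRange 6).map fun i => hE i ((c i : Fˣ) : F)).prod
  have hρact : ∀ (l : List (Fin 6)) (v : Fin 27 → F) x,
      act ((l.map fun i => hE i ((c i : Fˣ) : F)).prod) v x =
        (((l.map fun i => c i ^ wt i x).prod : Fˣ) : F) * v x := by
    intro l v x
    induction l with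
    | nil => simp [act_one]
    | cons i l ih =>
      rw [List.map_cons, List.prod_cons, act_mul, act_hE, ih, List.map_cons, List.prod_cons, Units.val_mul,
        mul_assoc]
  have e : g = ρ := gl_ext_basis fun a => funext fun x => by
    rw [hse, hρact, ← Fin.prod_univ_def]
    show s a * eV a x = ((χ x : Fˣ) : F) * eV a x
    by_cases hxa : x = a
    · subst hxa; rw [hall]; rfl
    · simp [eV, hxa]
  rw [e]
  exact Subgroup.list_prod_mem _ fun y hy => by
    obtain ⟨i, -, rfl⟩ := List.mem_map.1 hy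
    exact mul_mem (nE_mem _ _) (nE_mem _ _)

/-- The isometry group is generated by the root elements. -/
theorem cubicGroup_eq (hF : ∃ s : F, s ≠ 0 ∧ s ≠ 1) : cubicGroup F = rootGroup F := by
  refine le_antisymm (fun g hg => ?_) rootGroup_le
  obtain ⟨ρ, hρ, h⟩ := reduce_lines hF stepTab [] g steps_ok hg (fun a ha => absurd ha List.not_mem_nil)
  have := diagonal_mem hF (mul_mem (rootGroup_le hρ) hg) h
  simpa using mul_mem (inv_mem hρ) this

end CfsgLib.Chevalley.E6Cubic
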